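import Cfsg.Agent.H681.DegBasic
import Cfsg.Agent.H686.CharKit
import Cfsg.Agent.CharDeep.DegreeBound

/-!
# Gallagher over an extraspecial kernel (helper569, for S4173, row B)

`XS π z d` : `π : C →* K` onto, the kernel `N` has order `2 d ^ 2`, contains the central involution `z` of `C`, and every
`q ∈ N` other than `1`, `z` is conjugate to `q z` in `N`. If a character `Ψ` of `C` has `Ψ 1 - Ψ z = 2 d`, and all nontrivial
irreducible characters of `K` have degree `> n`, then for every character `Φ` of `C` with `Φ 1 - Φ z = 2 d k`, `k ≤ n`,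
`Φ c - Φ (c z) = k (Ψ c - Ψ (c z))`.
-/

set_option autoImplicit false
set_option linter.unusedSectionVars false

namespace Cfsg.Agent.H569.TC.Gall

open Cfsg Subgroup
open Cfsg.Agent.Characters Cfsg.Agent.Characters.Core
open Cfsg.Agent.H681.DegBasic
open scoped ComplexConjugate

universe u v

/-! ### Signs -/

section

variable {A : Type u} [Group A] [Finite A]

theorem sign {z : A} (hz : ∀ a, a * z = z * a) (hz2 : z * z = 1) (χ : IrrCharacter A) :
    (∀ a, (χ : A → ℂ) (a * z) = (χ : A → ℂ) a) ∨ (∀ a, (χ : A → ℂ) (a * z) = -(χ : A → ℂ) a) := by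
  have := Fintype.ofFinite A
  obtain ⟨w, -, hw⟩ := CharDeep.DegreeBound.exists_omega χ.2 (mem_center_iff.2 hz)
  have h1 := hw (1 * z)
  rw [mul_assoc, hz2, mul_one, hw 1, ← mul_assoc] at h1
  have h0 : (χ : A → ℂ) 1 ≠ 0 := isIrr_apply_one_ne_zero χ.2
  have h2 : w * w = 1 := by
    have h3 : (w * w) * (χ : A → ℂ) 1 = 1 * (χ : A → ℂ) 1 := by rw [one_mul]; exact h1.symm
    exact mul_right_cancel₀ h0 h3
  rcases mul_self_eq_one_iff.1 h2 with h3 | h3
  · left; intro a; rw [hw, h3, one_mul]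
  · right; intro a; rw [hw, h3, neg_one_mul]

end

variable {C : Type u} [Group C] [Finite C] {K : Type v} [Group K] [Finite K]

/-- The data. -/
structure XS (π : C →* K) (z : C) (d : ℕ) : Prop where
  surj : Function.Surjective π
  z_ker : π z = 1
  z_ne : z ≠ 1
  z_sq : z * z = 1
  z_comm : ∀ c, c * z = z * c
  pos : 0 < d
  card : Nat.card π.ker = 2 * d ^ 2
  cj : ∀ q, π q = 1 → q ≠ 1 → q ≠ z → ∃ y, π y = 1 ∧ y * q * y⁻¹ = q * z

variable {π : C →* K} {z : C} {d : ℕ}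

theorem XS.vanish (X : XS π z d) {φ : C → ℂ} (hc : IsClassFunction C φ) (ho : ∀ c, φ (c * z) = -φ c) {q : C}
    (hq : π q = 1) (h1 : q ≠ 1) (hz : q ≠ z) : φ q = 0 := by
  obtain ⟨y, -, hy⟩ := X.cj q hq h1 hz
  have h2 := hc q y
  rw [hy, ho] at h2
  have h3 : (2 : ℂ) * φ q = 0 := by linear_combination -h2
  simpa using h3

/-- the central involution in the kernel -/
def XS.zN (X : XS π z d) : π.ker := ⟨z, MonoidHom.mem_ker.2 X.z_ker⟩

theorem XS.sum_ker (X : XS π z d) [Fintype π.ker] {f : π.ker → ℂ} (hf : ∀ n : π.ker, n ≠ 1 → n ≠ X.zN → f n = 0) :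
    ∑ n, f n = f 1 + f X.zN := by
  classical
  have hne : (1 : π.ker) ≠ X.zN := fun h => X.z_ne (congrArg Subtype.val h).symm
  rw [← Finset.sum_pair hne]
  symm
  refine Finset.sum_subset (Finset.subset_univ _) fun n _ hn => hf n ?_ ?_
  · rintro rfl; exact hn (by simp)
  · rintro rfl; exact hn (by simp)

/-- an odd irreducible character of the kernel has degree `d` and vanishes outside `⟨z⟩` -/
theorem XS.odd_ker (X : XS π z d) (lam : IrrCharacter π.ker) (ho : ∀ n, (lam : π.ker → ℂ) (n * X.zN) = -(lam : π.ker → ℂ) n) :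
    (lam : π.ker → ℂ) 1 = d ∧ ∀ n, n ≠ 1 → n ≠ X.zN → (lam : π.ker → ℂ) n = 0 := by
  classical
  have := Fintype.ofFinite π.ker
  have hv : ∀ n, n ≠ 1 → n ≠ X.zN → (lam : π.ker → ℂ) n = 0 := by
    intro n h1 h2
    obtain ⟨y, hy1, hy⟩ := X.cj n n.2 (fun h => h1 (Subtype.ext h)) (fun h => h2 (Subtype.ext h))
    have h3 := isIrr_isClassFunction lam.2 n (⟨y, hy1⟩ : π.ker)
    have h4 : (⟨y, hy1⟩ : π.ker) * n * (⟨y, hy1⟩ : π.ker)⁻¹ = n * X.zN := Subtype.ext hy
    rw [h4, ho] at h3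
    have h5 : (2 : ℂ) * (lam : π.ker → ℂ) n = 0 := by linear_combination -h3
    simpa using h5
  refine ⟨?_, hv⟩
  have h1 := classInner_irr_self lam.2
  rw [classInner_def, X.sum_ker (f := fun n => (lam : π.ker → ℂ) n * conj ((lam : π.ker → ℂ) n))
    (fun n h1 h2 => by rw [hv n h1 h2, zero_mul])] at h1
  obtain ⟨m, hm, hm1⟩ := isIrr_apply_one lam.2
  have h2 : (lam : π.ker → ℂ) X.zN = -m := by
    have := ho 1
    rw [one_mul, hm1] at this
    exact this
  rw [h2, hm1, X.card] at h1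
  have hd : (d : ℂ) ≠ 0 := by exact_mod_cast X.pos.ne'
  simp only [map_neg, Complex.conj_natCast] at h1
  push_cast at h1
  have h3 : (m : ℂ) ^ 2 = (d : ℂ) ^ 2 := by
    field_simp at h1
    linear_combination h1 / 2
  have h4 : m ^ 2 = d ^ 2 := by exact_mod_cast h3
  have h5 : m = d := by
    exact Nat.pow_left_injective (n := 2) (by norm_num) h4
  rw [hm1, h5]

/-- odd irreducible characters restricted to the kernel -/
theorem XS.constit (X : XS π z d) (θ : IrrCharacter C) (ho : ∀ c, (θ : C → ℂ) (c * z) = -(θ : C → ℂ) c) :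
    ∃ lam : IrrCharacter π.ker, (lam : π.ker → ℂ) 1 = d ∧ (∀ n, n ≠ 1 → n ≠ X.zN → (lam : π.ker → ℂ) n = 0) ∧
      (lam : π.ker → ℂ) X.zN = -d ∧ d ∣ charDegree (θ : C → ℂ) := by
  classical
  have := Fintype.ofFinite C
  have := Fintype.ofFinite π.ker
  obtain ⟨n, -, hn⟩ := isIrr_apply_one θ.2
  obtain ⟨lam, e, hlam, hlam1, hin, hdvd, -⟩ := exists_constituent π.ker θ.2 hn
  have hodd : ∀ n, lam (n * X.zN) = -lam n := by
    rcases sign (z := X.zN) (fun a => Subtype.ext (X.z_comm a)) (Subtype.ext X.z_sq) (⟨lam, hlam⟩ : IrrCharacter π.ker) with h | h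
    · exfalso
      apply hin
      rw [classInner_def]
      have hs : ∑ x : π.ker, (θ : C → ℂ) x * conj (lam x) = 0 := by
        have h1 : ∑ x : π.ker, (θ : C → ℂ) x * conj (lam x) =
            ∑ x : π.ker, (θ : C → ℂ) ((x * X.zN : π.ker) : C) * conj (lam (x * X.zN)) :=
          (Fintype.sum_equiv (Equiv.mulRight X.zN) _ _ fun x => rfl).symm
        have h2 : ∑ x : π.ker, (θ : C → ℂ) ((x * X.zN : π.ker) : C) * conj (lam (x * X.zN)) =
            -∑ x : π.ker, (θ : C → ℂ) x * conj (lam x) := by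
          rw [← Finset.sum_neg_distrib]
          refine Finset.sum_congr rfl fun x _ => ?_
          have h3 : (θ : C → ℂ) ((x * X.zN : π.ker) : C) = -(θ : C → ℂ) x := ho x
          have h4 : lam (x * X.zN) = lam x := h x
          rw [h3, h4, neg_mul]
        rw [h2] at h1
        have h3 : (2 : ℂ) * ∑ x : π.ker, (θ : C → ℂ) x * conj (lam x) = 0 := by linear_combination h1
        simpa using h3
      rw [hs, mul_zero]
    · exact h
  obtain ⟨h1, h2⟩ := X.odd_ker ⟨lam, hlam⟩ hodd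
  refine ⟨⟨lam, hlam⟩, h1, h2, ?_, ?_⟩
  · have h3 := hodd 1
    rw [one_mul] at h3
    show lam X.zN = _
    rw [h3]
    exact congrArg Neg.neg h1
  · have h3 : e = d := by
      have h4 : (e : ℂ) = d := by rw [← hlam1]; exact h1
      exact_mod_cast h4
    have h5 : charDegree (θ : C → ℂ) = n := by
      have h6 := H686.CharKit.charDegree_irr θ
      rw [hn] at h6
      exact_mod_cast h6
    rw [h5, ← h3]
    exact hdvd

/-- odd irreducible characters on the kernel -/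
theorem XS.onKer (X : XS π z d) (θ : IrrCharacter C) (ho : ∀ c, (θ : C → ℂ) (c * z) = -(θ : C → ℂ) c)
    {lam : IrrCharacter π.ker} (h1 : (lam : π.ker → ℂ) 1 = d) (h2 : ∀ n, n ≠ 1 → n ≠ X.zN → (lam : π.ker → ℂ) n = 0)
    (h3 : (lam : π.ker → ℂ) X.zN = -d) (n : π.ker) : (θ : C → ℂ) n * d = (θ : C → ℂ) 1 * (lam : π.ker → ℂ) n := by
  have := Fintype.ofFinite C
  by_cases hn1 : n = 1
  · rw [hn1, h1]; rfl
  by_cases hnz : n = X.zN
  · have h4 : (θ : C → ℂ) z = -(θ : C → ℂ) 1 := by have := ho 1; rwa [one_mul] at this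
    rw [hnz, h3]
    show (θ : C → ℂ) z * d = _
    rw [h4]; ring
  · rw [h2 n hn1 hnz, X.vanish (isIrr_isClassFunction θ.2) ho n.2 (fun h => hn1 (Subtype.ext h))
      (fun h => hnz (Subtype.ext h)), zero_mul, mul_zero]

/-- **Gallagher.** -/
theorem XS.gall (X : XS π z d) {Θ : IrrCharacter C} (hΘ : ∀ c, (Θ : C → ℂ) (c * z) = -(Θ : C → ℂ) c)
    (hΘ1 : (Θ : C → ℂ) 1 = d) (θ : IrrCharacter C) (hθ : ∀ c, (θ : C → ℂ) (c * z) = -(θ : C → ℂ) c) :
    ∃ β : IrrCharacter K, ∀ c, (θ : C → ℂ) c = (β : K → ℂ) (π c) * (Θ : C → ℂ) c := by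
  classical
  have := Fintype.ofFinite C
  have := Fintype.ofFinite π.ker
  have hd : (d : ℂ) ≠ 0 := by exact_mod_cast X.pos.ne'
  obtain ⟨lam, h1, h2, h3, -⟩ := X.constit Θ hΘ
  have hres : (fun n : π.ker => (Θ : C → ℂ) n) = (lam : π.ker → ℂ) := by
    funext n
    have h4 := X.onKer Θ hΘ h1 h2 h3 n
    rw [hΘ1, mul_comm] at h4
    exact mul_left_cancel₀ hd h4
  have hinv : ∀ (g : C) (n : π.ker), (Θ : C → ℂ) (g * n * g⁻¹) = (Θ : C → ℂ) n := fun g n => isIrr_isClassFunction Θ.2 n g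
  have hBij := S0856.result π.ker (1 : π.ker → ℂ) (fun n : π.ker => (Θ : C → ℂ) n) isIrr_one (by rw [hres]; exact lam.2)
    (fun _ _ => rfl) (fun g n => hinv g n) (by rw [one_mul, hres]; exact lam.2) (Θ : C → ℂ) Θ.2 (fun _ => rfl)
  have hmem : (θ : C → ℂ) ∈ {ψ : C → ℂ | IsIrrCharacter C ψ ∧
      classInner (indFun π.ker ((1 : π.ker → ℂ) * fun n : π.ker => (Θ : C → ℂ) n)) ψ ≠ 0} := by
    refine ⟨θ.2, ?_⟩
    rw [CharactersDeep.NormalInd.classInner_indFun π.ker _ _ (isIrr_isClassFunction θ.2), one_mul, hres, classInner_def]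
    refine mul_ne_zero (inv_ne_zero (by exact_mod_cast Nat.card_pos.ne')) ?_
    rw [X.sum_ker (f := fun n : π.ker => (lam : π.ker → ℂ) n * conj ((θ : C → ℂ) n))
      (fun n h4 h5 => by rw [h2 n h4 h5, zero_mul])]
    obtain ⟨m, hm, hm1⟩ := isIrr_apply_one θ.2
    have h4 : (θ : C → ℂ) z = -m := by have := hθ 1; rwa [one_mul, hm1] at this
    have h5 : (θ : C → ℂ) ((X.zN : π.ker) : C) = -m := h4
    have h6 : (θ : C → ℂ) ((1 : π.ker) : C) = m := hm1
    rw [h1, h3, h5, h6]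
    simp only [map_neg, Complex.conj_natCast]
    have hm0 : (m : ℂ) ≠ 0 := by
      have : m ≠ 0 := by omega
      exact_mod_cast this
    have h7 : (d : ℂ) * m + -d * -m = 2 * (d * m) := by ring
    rw [h7]
    exact mul_ne_zero two_ne_zero (mul_ne_zero hd hm0)
  obtain ⟨β, ⟨hβ, hβ1⟩, hβ2⟩ := hBij.surjOn hmem
  rw [CharactersDeep.NormalInd.classInner_indFun π.ker _ _ (isIrr_isClassFunction hβ), classInner_def] at hβ1
  have hsum : ∑ n : π.ker, β n ≠ 0 := by
    intro h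
    apply hβ1
    have h4 : ∑ n : π.ker, (1 : π.ker → ℂ) n * conj (β n) = conj (∑ n : π.ker, β n) := by
      rw [map_sum]
      exact Finset.sum_congr rfl fun n _ => by rw [Pi.one_apply, one_mul]
    rw [h4, h, map_zero, mul_zero]
  obtain ⟨ψ, hψ⟩ := Blocks.Deflate.exists_deflation π.ker β hβ hsum
  let e' : C ⧸ π.ker ≃* K := QuotientGroup.quotientKerEquivOfSurjective π X.surj
  refine ⟨⟨(ψ : C ⧸ π.ker → ℂ) ∘ e'.symm.toMonoidHom, isIrr_comp e'.symm.toMonoidHom e'.symm.surjective ψ.2⟩, fun c => ?_⟩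
  have h4 : e'.symm (π c) = (c : C ⧸ π.ker) := by
    rw [MulEquiv.symm_apply_eq]
    rfl
  have h5 : (θ : C → ℂ) c = β c * (Θ : C → ℂ) c := (congrFun hβ2 c).symm
  rw [h5]
  congr 1
  show β c = (ψ : C ⧸ π.ker → ℂ) (e'.symm (π c))
  rw [h4]
  exact congrFun hψ c

/-! ### The odd part of a character -/

open Classical in
/-- the odd irreducible characters -/
noncomputable def odds [Fintype (IrrCharacter C)] (z : C) : Finset (IrrCharacter C) :=
  Finset.univ.filter fun χ => ∀ c, (χ : C → ℂ) (c * z) = -(χ : C → ℂ) c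

theorem mem_odds [Fintype (IrrCharacter C)] {χ : IrrCharacter C} :
    χ ∈ odds z ↔ ∀ c, (χ : C → ℂ) (c * z) = -(χ : C → ℂ) c := by
  classical
  rw [odds, Finset.mem_filter]
  exact ⟨fun h => h.2, fun h => ⟨Finset.mem_univ _, h⟩⟩

theorem XS.split (X : XS π z d) [Fintype (IrrCharacter C)] {Φ : C → ℂ} {m : IrrCharacter C → ℕ}
    (hm : Φ = ∑ ψ : IrrCharacter C, m ψ • (ψ : C → ℂ)) (c : C) :
    Φ c - Φ (c * z) = 2 * ∑ ψ ∈ odds z, (m ψ : ℂ) * (ψ : C → ℂ) c := by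
  classical
  have h1 : ∀ a, Φ a = ∑ ψ : IrrCharacter C, (m ψ : ℂ) * (ψ : C → ℂ) a := by
    intro a
    rw [hm, Finset.sum_apply]
    exact Finset.sum_congr rfl fun ψ _ => by rw [Pi.smul_apply, nsmul_eq_mul]
  rw [h1, h1, ← Finset.sum_sub_distrib, Finset.mul_sum, odds, Finset.sum_filter]
  refine Finset.sum_congr rfl fun ψ _ => ?_
  by_cases h : ∀ c, (ψ : C → ℂ) (c * z) = -(ψ : C → ℂ) c
  · rw [if_pos h, h c]; ring
  · rw [if_neg h]
    rcases sign X.z_comm X.z_sq ψ with h2 | h2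
    · rw [h2]; ring
    · exact absurd h2 h

theorem deg_eq (χ : IrrCharacter C) : (χ : C → ℂ) 1 = (charDegree (χ : C → ℂ) : ℂ) := (H686.CharKit.charDegree_irr χ).symm

/-- the degree of the odd part -/
theorem XS.deg_sum (X : XS π z d) [Fintype (IrrCharacter C)] {Φ : C → ℂ} {m : IrrCharacter C → ℕ}
    (hm : Φ = ∑ ψ : IrrCharacter C, m ψ • (ψ : C → ℂ)) {k : ℕ} (hk : Φ 1 - Φ z = 2 * d * k) :
    ∑ ψ ∈ odds z, m ψ * charDegree (ψ : C → ℂ) = d * k := by
  have h1 := X.split hm 1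
  rw [one_mul, hk] at h1
  have h2 : (∑ ψ ∈ odds z, (m ψ : ℂ) * (ψ : C → ℂ) 1) = ((∑ ψ ∈ odds z, m ψ * charDegree (ψ : C → ℂ) : ℕ) : ℂ) := by
    push_cast
    exact Finset.sum_congr rfl fun ψ _ => by rw [deg_eq]
  rw [h2] at h1
  have h3 : ((∑ ψ ∈ odds z, m ψ * charDegree (ψ : C → ℂ) : ℕ) : ℂ) = ((d * k : ℕ) : ℂ) := by
    push_cast at h1 ⊢
    linear_combination -h1 / 2
  exact_mod_cast h3

/-- **The extension of the character of the kernel.** -/
theorem XS.exists_theta (X : XS π z d) {Ψ : C → ℂ} (hΨ : IsCharacter C Ψ) (h1 : Ψ 1 - Ψ z = 2 * d) :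
    ∃ Θ : IrrCharacter C, (∀ c, (Θ : C → ℂ) (c * z) = -(Θ : C → ℂ) c) ∧ (Θ : C → ℂ) 1 = d ∧
      ∀ c, Ψ c - Ψ (c * z) = 2 * (Θ : C → ℂ) c := by
  classical
  have : Finite (IrrCharacter C) := finite_irr
  have := Fintype.ofFinite (IrrCharacter C)
  obtain ⟨m, hm⟩ := exists_nat_comb hΨ
  have hs := X.deg_sum hm (k := 1) (by rw [h1]; push_cast; ring)
  rw [mul_one] at hs
  have hge : ∀ ψ ∈ odds z, d ≤ charDegree (ψ : C → ℂ) := by
    intro ψ hψ
    obtain ⟨-, -, -, -, h⟩ := X.constit ψ (mem_odds.1 hψ)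
    exact Nat.le_of_dvd (H686.CharKit.charDegree_pos ψ) h
  obtain ⟨Θ, hΘ, hΘm⟩ : ∃ Θ ∈ odds z, m Θ ≠ 0 := by
    by_contra hcon
    push Not at hcon
    have h2 : ∑ ψ ∈ odds z, m ψ * charDegree (ψ : C → ℂ) = 0 :=
      Finset.sum_eq_zero fun ψ hψ => by rw [hcon ψ hψ, zero_mul]
    rw [h2] at hs
    exact X.pos.ne hs
  rw [← Finset.add_sum_erase _ _ hΘ] at hs
  have h3 : charDegree (Θ : C → ℂ) ≤ m Θ * charDegree (Θ : C → ℂ) := Nat.le_mul_of_pos_left _ (Nat.pos_of_ne_zero hΘm)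
  have h4 := hge Θ hΘ
  have h5 : charDegree (Θ : C → ℂ) = d := by omega
  have h6 : m Θ = 1 := by
    have h7 : m Θ * charDegree (Θ : C → ℂ) ≤ d := by omega
    rw [h5] at h7
    have h8 : m Θ * d ≤ 1 * d := by omega
    have := Nat.le_of_mul_le_mul_right h8 X.pos
    omega
  have h7 : ∑ ψ ∈ (odds z).erase Θ, m ψ * charDegree (ψ : C → ℂ) = 0 := by
    rw [h5, h6] at hs; omega
  refine ⟨Θ, mem_odds.1 hΘ, by rw [deg_eq, h5], fun c => ?_⟩
  rw [X.split hm c, ← Finset.add_sum_erase _ _ hΘ, h6, Nat.cast_one, one_mul]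
  have h8 : ∑ ψ ∈ (odds z).erase Θ, (m ψ : ℂ) * (ψ : C → ℂ) c = 0 := by
    refine Finset.sum_eq_zero fun ψ hψ => ?_
    have h9 := (Finset.sum_eq_zero_iff.1 h7) ψ hψ
    have h10 : m ψ = 0 := by
      rcases Nat.mul_eq_zero.1 h9 with h | h
      · exact h
      · have := H686.CharKit.charDegree_pos ψ; omega
    rw [h10, Nat.cast_zero, zero_mul]
  rw [h8, add_zero]

/-- **Main theorem.** -/
theorem XS.main (X : XS π z d) {n : ℕ} (hK : ∀ β : IrrCharacter K, (β : K → ℂ) ≠ 1 → n < charDegree (β : K → ℂ))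
    {Ψ : C → ℂ} (hΨ : IsCharacter C Ψ) (h1 : Ψ 1 - Ψ z = 2 * d)
    {Φ : C → ℂ} (hΦ : IsCharacter C Φ) {k : ℕ} (hk : Φ 1 - Φ z = 2 * d * k) (hkn : k ≤ n) (c : C) :
    Φ c - Φ (c * z) = k * (Ψ c - Ψ (c * z)) := by
  classical
  have : Finite (IrrCharacter C) := finite_irr
  have := Fintype.ofFinite (IrrCharacter C)
  obtain ⟨Θ, hΘ, hΘ1, hΘc⟩ := X.exists_theta hΨ h1
  obtain ⟨m, hm⟩ := exists_nat_comb hΦ
  have hs := X.deg_sum hm hk
  have hΘd : charDegree (Θ : C → ℂ) = d := by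
    have := deg_eq Θ
    rw [hΘ1] at this
    exact_mod_cast this.symm
  have key : ∀ ψ ∈ odds z, ψ ≠ Θ → m ψ = 0 := by
    intro ψ hψ hne
    by_contra hm0
    apply hne
    obtain ⟨β, hβ⟩ := X.gall hΘ hΘ1 ψ (mem_odds.1 hψ)
    have h2 : charDegree (ψ : C → ℂ) = charDegree (β : K → ℂ) * d := by
      have h3 := hβ 1
      rw [map_one, deg_eq, hΘ1] at h3
      have h4 : (β : K → ℂ) 1 = (charDegree (β : K → ℂ) : ℂ) := (H686.CharKit.charDegree_irr β).symm
      rw [h4] at h3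
      exact_mod_cast h3
    have h3 : m ψ * charDegree (ψ : C → ℂ) ≤ d * k := by
      rw [← hs]
      exact Finset.single_le_sum (f := fun ψ => m ψ * charDegree (ψ : C → ℂ)) (fun _ _ => Nat.zero_le _) hψ
    have h4 : charDegree (β : K → ℂ) ≤ k := by
      have h5 : charDegree (β : K → ℂ) * d ≤ k * d := by
        calc charDegree (β : K → ℂ) * d = 1 * charDegree (ψ : C → ℂ) := by rw [h2, one_mul]
          _ ≤ m ψ * charDegree (ψ : C → ℂ) := Nat.mul_le_mul_right _ (Nat.pos_of_ne_zero hm0)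
          _ ≤ d * k := h3
          _ = k * d := mul_comm _ _
      exact Nat.le_of_mul_le_mul_right h5 X.pos
    have h5 : (β : K → ℂ) = 1 := by
      by_contra h6
      have := hK β h6
      omega
    apply Subtype.ext
    funext a
    rw [hβ a, h5, Pi.one_apply, one_mul]
  have hΘo : Θ ∈ odds z := mem_odds.2 hΘ
  have hmk : m Θ = k := by
    rw [← Finset.add_sum_erase _ _ hΘo, Finset.sum_eq_zero (s := (odds z).erase Θ) (fun ψ hψ => by
      rw [key ψ (Finset.mem_of_mem_erase hψ) (Finset.ne_of_mem_erase hψ), zero_mul]), add_zero, hΘd, mul_comm] at hs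
    exact Nat.eq_of_mul_eq_mul_left X.pos hs
  rw [X.split hm c, hΘc, ← Finset.add_sum_erase _ _ hΘo, Finset.sum_eq_zero (s := (odds z).erase Θ) (fun ψ hψ => by
      rw [key ψ (Finset.mem_of_mem_erase hψ) (Finset.ne_of_mem_erase hψ), Nat.cast_zero, zero_mul]), add_zero, hmk]
  ring

end Cfsg.Agent.H569.TC.Gall
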