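import Cfsg.Agent.H569.TC.Gall
import Cfsg.Agent.H570.Ore.Abs
import Cfsg.Agent.SmallSimple.InvolColumn

/-!
# Characters of the Baby Monster with a small `[V, Z]` (helper569, for S4173, row B)

`Dt G Z` (helper570), `C(Z)` with the extraspecial kernel (`XS`, `d = 2048`), a quotient `K` without nontrivial irreducible
characters of degree `≤ 22`, and an irreducible character of degree `4371`: if `χ ≠ 1`, `χ(Z) = χ(1) - 4096 k`, then
`k = 1` or `23 ≤ k`.
-/

set_option autoImplicit false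
set_option linter.unusedSectionVars false

namespace Cfsg.Agent.H569.TC.Kill

open Cfsg Subgroup
open Cfsg.Agent.Characters.Core Cfsg.Agent.H570.Ore Cfsg.Agent.H570.Ore.Abs Cfsg.Agent.H570.Ore.Num
open Cfsg.Agent.SmallSimple.ThetaSetup Cfsg.Agent.SmallSimple.PrimeLocal
open Cfsg.Agent.H569.TC.Gall
open scoped ComplexConjugate

universe u v

theorem norm_le_seven {G : Type u} [Group G] [Finite G] (χ : IrrCharacter G) {g : G}
    (h : Nat.card (centralizer ({g} : Set G)) ≤ 46) : ‖(χ : G → ℂ) g‖ < 7 := by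
  have h1 := SmallSimple.InvolColumn.sum_norm_sq_le {χ} g
  rw [Finset.sum_singleton] at h1
  have h2 : (Nat.card (centralizer ({g} : Set G)) : ℝ) ≤ 46 := by exact_mod_cast h
  nlinarith [norm_nonneg ((χ : G → ℂ) g)]

variable {G : Type u} [Group G] [Finite G] [IsSimpleGroup G] {Z : G} {K : Type v} [Group K] [Finite K]

/-- the value of a character of degree `≡ 1` with `χ(Z) ≢ χ(1)` modulo 23 -/
theorem psi_diff {P : Sylow 23 G} {L : Subgroup G} (hL : IsComp 23 (P : Subgroup G) L) (hP : Nat.card P = 23)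
    (hL2 : Nat.card L = 2) (hZL : Z ∈ L) (hZ : Z ≠ 1) (hZ2 : Z * Z = 1)
    (he : (centralizer ((P : Subgroup G) : Set G)).relIndex (normalizer ((P : Subgroup G) : Set G)) = 11)
    {ψ : IrrCharacter G} (hψ : charDegree (ψ : G → ℂ) = 4371) (hψZ : (ψ : G → ℂ) Z = 275)
    {x : G} (hx : x ∈ (P : Subgroup G)) (hx1 : x ≠ 1) : (ψ : G → ℂ) x - (ψ : G → ℂ) (x * Z) = 2 := by
  classical
  have hF : Fact (Nat.Prime 23) := ⟨by norm_num⟩
  have := Fintype.ofFinite (P : Subgroup G)
  have := Fintype.ofFinite L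
  rcases Blk.cases hL hP hL2.le he (by norm_num : 11 * 2 = 23 - 1) ψ with h | ⟨θ, hθ, h⟩
  · exfalso
    have h1 : (23 : ℤ) ∣ charDegree (ψ : G → ℂ) := by
      have := Blk.deg_zero hP (χ := ψ) fun x hx => h x (by
        rw [Blocks.CyclicOrtho.orderOf_eq P hP x.2 fun h => hx (Subtype.ext h)])
      exact_mod_cast this
    rw [hψ] at h1
    revert h1; norm_num
  have hε : ∀ x : P, x ≠ 1 → (ψ : G → ℂ) x = 1 := by
    rcases h with ⟨ε, hε, h⟩ | ⟨d, hd, S, hS, hS1, h⟩
    · have h1 : ε = 1 := by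
        rcases hε with rfl | rfl
        · rfl
        · exfalso
          have h2 := Blk.deg_const hP (χ := ψ) h
          rw [hψ] at h2
          revert h2; norm_num
      intro x hx
      rw [h x hx, h1, Int.cast_one]
    · exfalso
      have h2 := Blk.deg_exc hP (χ := ψ) hS1 h
      rw [hψ, hS] at h2
      rcases hd with rfl | rfl <;> (revert h2; norm_num)
  have hyy : (⟨Z, hZL⟩ : L) * ⟨Z, hZL⟩ = 1 := Subtype.ext hZ2
  have hval : ∀ x : P, x ≠ 1 → (ψ : G → ℂ) (x * Z) = (θ : L → ℂ) ⟨Z, hZL⟩ := by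
    intro x hx
    have h1 := hθ x hx ⟨Z, hZL⟩
    rw [hε x hx, one_mul] at h1
    exact h1
  rcases Blk.theta_invol hyy hL2.le θ with h1 | h1
  · exfalso
    have hcomm : ∀ (x : (P : Subgroup G)) (k : L), Commute ((P : Subgroup G).subtype x) (L.subtype k) :=
      fun x k => hL.comm x.2 k.2
    obtain ⟨m, hm⟩ := Blk.exists_sum_hom ψ (((P : Subgroup G).subtype).noncommCoprod L.subtype hcomm)
    obtain ⟨a, ha⟩ := Blk.exists_sum ψ (P : Subgroup G)
    have huniv : (Finset.univ : Finset L) = {1, ⟨Z, hZL⟩} := by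
      symm
      refine Finset.eq_univ_of_card _ ?_
      rw [Finset.card_pair (fun h => hZ (congrArg Subtype.val h).symm), ← Nat.card_eq_fintype_card, hL2]
    have hsplit : ∑ x : Prod (P : Subgroup G) L, (ψ : G → ℂ) ((((P : Subgroup G).subtype).noncommCoprod L.subtype hcomm) x) =
        ∑ x : (P : Subgroup G), (ψ : G → ℂ) x + ∑ x : (P : Subgroup G), (ψ : G → ℂ) (x * Z) := by
      rw [Fintype.sum_prod_type_right, huniv, Finset.sum_pair (fun h => hZ (congrArg Subtype.val h).symm)]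
      congr 1
      refine Finset.sum_congr rfl fun x _ => ?_
      simp [MonoidHom.noncommCoprod_apply]
    rw [hsplit, Nat.card_prod, Blk.coe_P P hP, hL2] at hm
    rw [Blk.coe_P P hP] at ha
    have hy' : ∑ x : (P : Subgroup G), (ψ : G → ℂ) (x * Z) = ∑ x : (P : Subgroup G), (ψ : G → ℂ) x + (275 - 4371) := by
      rw [← Finset.add_sum_erase _ _ (Finset.mem_univ (1 : (P : Subgroup G))),
        ← Finset.add_sum_erase _ (fun x : (P : Subgroup G) => (ψ : G → ℂ) x) (Finset.mem_univ (1 : (P : Subgroup G))),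
        Finset.sum_congr rfl fun x hx => by
          rw [hval x (Finset.ne_of_mem_erase hx), h1, ← hε x (Finset.ne_of_mem_erase hx)],
        Subgroup.coe_one, one_mul, hψZ, Blk.deg_cast, hψ]
      push_cast
      ring
    rw [hy', ha] at hm
    have h3 : ((2 * (a * 23 : ℤ) - 4096 : ℤ) : ℂ) = ((m * (23 * 2) : ℤ) : ℂ) := by
      push_cast at hm ⊢
      linear_combination hm
    have h4 : (2 * (a * 23 : ℤ) - 4096 : ℤ) = m * (23 * 2) := by exact_mod_cast h3
    omega
  · have h2 := hval ⟨x, hx⟩ (fun h => hx1 (congrArg Subtype.val h))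
    have h3 := hε ⟨x, hx⟩ (fun h => hx1 (congrArg Subtype.val h))
    rw [h1] at h2
    have h4 : (ψ : G → ℂ) (x * Z) = -1 := h2
    have h5 : (ψ : G → ℂ) x = 1 := h3
    rw [h4, h5]; norm_num

/-- **No small `k`.** -/
theorem kill (D : Dt G Z) {π : centralizer ({Z} : Set G) →* K} {z : centralizer ({Z} : Set G)} (hz : (z : G) = Z)
    (X : XS π z 2048) (hK : ∀ β : IrrCharacter K, (β : K → ℂ) ≠ 1 → 22 < charDegree (β : K → ℂ))
    {ψ : IrrCharacter G} (hψ : charDegree (ψ : G → ℂ) = 4371) {χ : IrrCharacter G} {k : ℤ}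
    (hk : (χ : G → ℂ) Z = (charDegree (χ : G → ℂ) : ℂ) - 4096 * k) : k < 7 ∨ 23 ≤ k := by
  classical
  have := Fintype.ofFinite (centralizer ({Z} : Set G))
  by_contra hcon
  push Not at hcon
  obtain ⟨hk7, hk23⟩ := hcon
  obtain ⟨m, rfl⟩ := Int.eq_ofNat_of_zero_le (by omega : 0 ≤ k)
  -- the value of `ψ` at `Z`
  have hψ1 : (ψ : G → ℂ) ≠ 1 := by
    intro h
    have h1 := Blk.deg_cast ψ
    rw [hψ, h] at h1
    norm_num at h1
  obtain ⟨k', hk'⟩ := D.ext ψ
  have hk1 : 1 ≤ k' := Ext.one_le hψ1 D.Z_ne (c := 4096) (by norm_num) (by rw [hk']; push_cast; ring)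
  have hk2 := D.pure ψ k' hk'
  rw [hψ] at hk2
  have hk3 : k' = 1 := by omega
  have hψZ : (ψ : G → ℂ) Z = 275 := by rw [hk', hk3, hψ]; norm_num
  -- the element of order 23
  have hF23 : Fact (Nat.Prime 23) := ⟨by norm_num⟩
  obtain ⟨x23, hx23, hxZ, hc23⟩ := D.x23
  obtain ⟨P', K', hK', hP', hPx', hp2', ht', he', hKc'⟩ := exists_blk D.nonab D.card hx23 (k := 2) (by rw [hc23])
    11 2 [(0, 0), (1, 2), (22, -2), (11, -1), (12, 1)] 0 false (by decide +kernel)
  have hZK : Z ∈ K' := by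
    rw [hK' Z]
    refine ⟨?_, ?_⟩
    · rw [hPx', mem_centralizer_iff]
      rintro _ ⟨i, rfl⟩
      exact ((show Commute x23 Z from hxZ).zpow_left i).eq
    · intro h
      have h1 : orderOf Z ∣ 2 := orderOf_dvd_of_pow_eq_one (by rw [pow_two]; exact D.Z_sq)
      have h2 := h.trans h1
      revert h2
      norm_num
  have hx1 : x23 ≠ 1 := by
    rintro rfl
    rw [orderOf_one] at hx23
    norm_num at hx23
  have hd := psi_diff hK' hP' hKc' hZK D.Z_ne D.Z_sq he' hψ hψZ (by rw [hPx']; exact mem_zpowers x23) hx1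
  -- restriction to the centralizer
  have h1 := X.main (n := 22) hK
    (Ψ := fun c : centralizer ({Z} : Set G) => (ψ : G → ℂ) c)
    (Characters.Clifford.isCharacter_restrict _ (isIrr_isCharacter ψ.2))
    (by
      show (ψ : G → ℂ) 1 - (ψ : G → ℂ) z = _
      rw [hz, hψZ, Blk.deg_cast, hψ]; norm_num)
    (Φ := fun c : centralizer ({Z} : Set G) => (χ : G → ℂ) c)
    (Characters.Clifford.isCharacter_restrict _ (isIrr_isCharacter χ.2)) (k := m)
    (by
      show (χ : G → ℂ) 1 - (χ : G → ℂ) z = _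
      rw [hz, hk, Blk.deg_cast]; push_cast; ring)
    (by omega) ⟨x23, mem_centralizer_singleton_iff.2 hxZ⟩
  have h2 : (χ : G → ℂ) x23 - (χ : G → ℂ) (x23 * Z) = m * ((ψ : G → ℂ) x23 - (ψ : G → ℂ) (x23 * Z)) := by
    have h3 := h1
    simp only [Subgroup.coe_mul, hz] at h3
    exact h3
  rw [hd] at h2
  have hcZ : Nat.card (centralizer ({x23 * Z} : Set G)) ≤ 46 := by
    rw [← hc23]
    refine Subgroup.card_le_of_le ?_
    intro y hy
    rw [mem_centralizer_singleton_iff] at hy ⊢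
    -- `x23` is a power of `x23 * Z`
    have h4 : (x23 * Z) ^ 24 = x23 := by
      rw [(show Commute x23 Z from hxZ).mul_pow]
      have h5 : x23 ^ 24 = x23 := by
        have h6 : x23 ^ 23 = 1 := by rw [← hx23]; exact pow_orderOf_eq_one x23
        rw [show 24 = 23 + 1 from rfl, pow_succ, h6, one_mul]
      have h7 : Z ^ 24 = 1 := by
        rw [show 24 = 2 * 12 from rfl, pow_mul, pow_two, D.Z_sq, one_pow]
      rw [h5, h7, mul_one]
    have h5 : Commute y (x23 * Z) := hy
    have h6 := h5.pow_right 24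
    rw [h4] at h6
    exact h6
  have h3 := norm_le_seven χ (g := x23) hc23.le
  have h4 := norm_le_seven χ (g := x23 * Z) hcZ
  have h5 : ‖(m : ℂ) * 2‖ < 14 := by
    rw [← h2]
    calc ‖(χ : G → ℂ) x23 - (χ : G → ℂ) (x23 * Z)‖ ≤ ‖(χ : G → ℂ) x23‖ + ‖(χ : G → ℂ) (x23 * Z)‖ := norm_sub_le _ _
      _ < 14 := by linarith
  rw [norm_mul, Complex.norm_natCast] at h5
  have h6 : (m : ℝ) * 2 < 14 := by simpa using h5
  have h7 : (7 : ℝ) ≤ m := by exact_mod_cast hk7
  linarith

end Cfsg.Agent.H569.TC.Kill
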